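import Mathlib
import Cfsg.Agent.MinNonCA98.Defs
import Cfsg.Agent.SL2.Elements
import Cfsg.Agent.Psl2Cover.Elements
import Cfsg.Agent.S0556

/-!
# A minimal non-CA group over `PSL(2, F)`, `F` of odd order

If `G / Z(G)` is `PSL(2, F)` with `F` of odd order and every element in the centre of a Sylow
2-subgroup of `G` is central, then `G` is not minimal non-CA.  The proof uses no Schur multiplier:
a red element has a maximal centraliser, whose image is then the full centraliser of its image,
which is not abelian (a simple group has no abelian maximal subgroup), so the image is an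
involution and its centraliser contains a Sylow 2-subgroup.
-/

set_option autoImplicit false

namespace CfsgLib.MinNonCA98

open CfsgLib.SL2 CfsgLib.Psl2Cover

section PSL

variable {F : Type*} [Field F]

/-- In `PSL(2, F)`, `char F ≠ 2`, only involutions have nonabelian centralisers. -/
theorem psl_sq_eq_one_of_not_commute (h2 : (2 : F) ≠ 0)
    {x a b : Matrix.ProjectiveSpecialLinearGroup (Fin 2) F} (hx : x ≠ 1)
    (ha : Commute x a) (hb : Commute x b) (hab : ¬ Commute a b) : x * x = 1 := by
  obtain ⟨g, rfl⟩ := proj_surjective x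
  obtain ⟨c, rfl⟩ := proj_surjective a
  obtain ⟨d, rfl⟩ := proj_surjective b
  by_cases ht : tr g = 0
  · rw [← map_mul, mul_self_of_tr_eq_zero ht, proj_eq_one_iff]
    exact neg_one_mem_center
  exfalso
  have hg : g ∉ Subgroup.center (Matrix.SpecialLinearGroup (Fin 2) F) :=
    fun h => hx (proj_eq_one_iff.2 h)
  have key : ∀ c : Matrix.SpecialLinearGroup (Fin 2) F, Commute (proj g) (proj c) →
      c ∈ Subgroup.centralizer ({g} : Set (Matrix.SpecialLinearGroup (Fin 2) F)) := by
    intro c hc
    rw [Subgroup.mem_centralizer_singleton_iff]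
    have e : proj (c * g * c⁻¹) = proj g := by
      rw [map_mul, map_mul, map_inv, ← hc.eq, mul_inv_cancel_right]
    rcases proj_eq_iff.1 e with e | e
    · exact mul_inv_eq_iff_eq_mul.1 e
    · exfalso
      have h' := tr_conj g c
      rw [e, tr_neg] at h'
      exact ht ((mul_eq_zero.1 (show (2 : F) * tr g = 0 by linear_combination -h')).resolve_left h2)
  apply hab
  show proj c * proj d = proj d * proj c
  rw [← map_mul, ← map_mul, centralizer_commute hg (key c ha) (key d hb)]

/-- In `PSL(2, F)`, `F` finite of characteristic not 2, the involutions are conjugate. -/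
theorem psl_isConj_of_sq_eq_one [Finite F] (h2 : (2 : F) ≠ 0)
    {x y : Matrix.ProjectiveSpecialLinearGroup (Fin 2) F} (hx : x ≠ 1) (hxx : x * x = 1)
    (hy : y ≠ 1) (hyy : y * y = 1) : IsConj x y := by
  have key : ∀ g : Matrix.SpecialLinearGroup (Fin 2) F, proj g ≠ 1 → proj g * proj g = 1 →
      tr g = 0 := by
    intro g hg hgg
    by_contra ht
    rw [← map_mul, proj_eq_one_iff] at hgg
    have hg' : g ∉ Subgroup.center (Matrix.SpecialLinearGroup (Fin 2) F) :=
      fun h => hg (proj_eq_one_iff.2 h)
    have hsq := coe_sq g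
    have hne := not_isScalar2 hg'
    rcases mem_center_iff'.1 hgg with e | e
    all_goals
      have he := congrArg (fun z : Matrix.SpecialLinearGroup (Fin 2) F =>
        (z : Matrix (Fin 2) (Fin 2) F)) e
      simp only [Matrix.SpecialLinearGroup.coe_mul, hsq] at he
      have h01 := congrFun (congrFun he 0) 1
      have h10 := congrFun (congrFun he 1) 0
      have h00 := congrFun (congrFun he 0) 0
      have h11 := congrFun (congrFun he 1) 1
      simp [Matrix.sub_apply, Matrix.smul_apply, ht] at h01 h10 h00 h11
      refine hg' (Classical.byContradiction fun hc =>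
        not_mem_center_iff_entries.1 hc ⟨h01, h10, mul_left_cancel₀ ht ?_⟩)
      first
        | linear_combination h00 - h11
        | linear_combination (tr g) * h00 - (tr g) * h11
  obtain ⟨g, rfl⟩ := proj_surjective x
  obtain ⟨k, rfl⟩ := proj_surjective y
  have hg := key g hx hxx
  have hk := key k hy hyy
  have h4 : tr g ^ 2 ≠ 4 := by
    rw [hg]
    intro h
    exact h2 (by simpa using (show (2 : F) * 2 = 0 by linear_combination -h))
  exact MonoidHom.map_isConj proj (isConj_of_tr_eq h4 (hg.trans hk.symm))

end PSL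

variable {G : Type*} [Group G]

/-- The final contradiction of piece C: no minimal non-CA group with all central elements of
Sylow 2-subgroups central lies over `PSL(2, F)`, `F` of odd order. -/
theorem false_of_psl2_quotient [Finite G] (h : MinNonCA G)
    (hsimple : IsSimpleGroup (G ⧸ Subgroup.center G))
    {F : Type*} [Field F] [Finite F] (h2 : (2 : F) ≠ 0)
    (e : (G ⧸ Subgroup.center G) ≃* Matrix.ProjectiveSpecialLinearGroup (Fin 2) F)
    (hS : ∀ S : Sylow 2 G, ∀ w ∈ (S : Subgroup G),
      (∀ s ∈ (S : Subgroup G), Commute w s) → w ∈ Subgroup.center G) : False := by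
  haveI := hsimple
  haveI : Fact (Nat.Prime 2) := ⟨Nat.prime_two⟩
  obtain ⟨x, hx⟩ := exists_red_of_not_ca h.not_ca
  set π : G →* G ⧸ Subgroup.center G := QuotientGroup.mk' (Subgroup.center G) with hπ
  have hπs : Function.Surjective π := QuotientGroup.mk'_surjective _
  have hπk : ∀ g : G, π g = 1 ↔ g ∈ Subgroup.center G := fun g => QuotientGroup.eq_one_iff g
  -- the quotient is not abelian
  have hnc : ¬ ∀ a b : G ⧸ Subgroup.center G, a * b = b * a := by
    intro hab
    apply h.not_solvable
    haveI : Group.IsSolvable (G ⧸ Subgroup.center G) := Group.isSolvable_of_comm hab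
    haveI : Group.IsSolvable (Subgroup.center G) := Group.isSolvable_of_comm fun a b => mul_comm' a b
    exact solvable_of_ker_le_range (Subgroup.center G).subtype π
      (by rw [hπ, QuotientGroup.ker_mk', Subgroup.range_subtype])
  -- the image of the centraliser is the whole centraliser of the image
  set M := Subgroup.centralizer ({x} : Set G) with hM
  have hco : IsCoatom M := hx.isCoatom h
  have hxb : π x ≠ 1 := fun e => hx.1 ((hπk x).1 e)
  set K := (Subgroup.centralizer ({π x} : Set (G ⧸ Subgroup.center G))).comap π with hK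
  have hMK : M ≤ K := by
    intro m hm
    rw [hK, Subgroup.mem_comap, Subgroup.mem_centralizer_singleton_iff, ← map_mul, ← map_mul,
      Subgroup.mem_centralizer_singleton_iff.1 hm]
  have hKne : K ≠ ⊤ := by
    intro hKt
    have hzc : π x ∈ Subgroup.center (G ⧸ Subgroup.center G) := by
      rw [Subgroup.mem_center_iff]
      intro q
      obtain ⟨g, rfl⟩ := hπs q
      have hg : g ∈ K := hKt ▸ Subgroup.mem_top g
      rw [hK, Subgroup.mem_comap, Subgroup.mem_centralizer_singleton_iff] at hg
      exact hg
    rcases (inferInstance : (Subgroup.center (G ⧸ Subgroup.center G)).Normal).eq_bot_or_eq_top with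
      hb | ht
    · rw [hb, Subgroup.mem_bot] at hzc
      exact hxb hzc
    · exact hnc fun a b => ((Subgroup.mem_center_iff.1 (ht ▸ Subgroup.mem_top b)) a)
  have hKM : K = M := by
    by_contra hne
    exact hKne (hco.2 K (lt_of_le_of_ne hMK (Ne.symm hne)))
  -- it is not abelian
  have hcob : IsCoatom (Subgroup.centralizer ({π x} : Set (G ⧸ Subgroup.center G))) := by
    refine ⟨fun ht => hKne (by rw [hK, ht, Subgroup.comap_top]), fun B hB => ?_⟩
    have hlt : K < B.comap π := (Subgroup.comap_lt_comap_of_surjective hπs).2 hB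
    have := hco.2 (B.comap π) (hKM ▸ hlt)
    rw [← Subgroup.map_comap_eq_self_of_surjective hπs B, this,
      Subgroup.map_top_of_surjective π hπs]
  have hnab : ¬ IsMulCommutative
      (Subgroup.centralizer ({π x} : Set (G ⧸ Subgroup.center G))) := by
    intro hab
    haveI := hab
    have hd := Cfsg.Agent.S0556.result _ hcob
    haveI : Group.IsSolvable (G ⧸ Subgroup.center G) := ⟨⟨3, hd⟩⟩
    exact hnc (IsSimpleGroup.comm_iff_isSolvable.mpr inferInstance)
  obtain ⟨a, b, ha, hb, hab⟩ : ∃ a b : G ⧸ Subgroup.center G,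
      Commute (π x) a ∧ Commute (π x) b ∧ ¬ Commute a b := by
    by_contra hno
    push Not at hno
    exact hnab ⟨⟨fun a b => Subtype.ext (hno a b (Subgroup.mem_centralizer_singleton_iff.1 a.2).symm
      (Subgroup.mem_centralizer_singleton_iff.1 b.2).symm)⟩⟩
  have hsq : π x * π x = 1 := by
    apply e.injective
    rw [map_mul, map_one]
    refine psl_sq_eq_one_of_not_commute h2 (fun he => hxb (e.injective (he.trans (map_one e).symm)))
      (ha.map e) (hb.map e) fun hc => hab ?_
    exact e.injective (by rw [map_mul, map_mul]; exact hc)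
  -- `π x` centralises a Sylow 2-subgroup
  obtain ⟨S, hSx⟩ : ∃ S : Sylow 2 G, ∀ s ∈ (S : Subgroup G), π x * π s = π s * π x := by
    obtain ⟨T⟩ : Nonempty (Sylow 2 G) := inferInstance
    have hTp : IsPGroup 2 ((T : Subgroup G).map π) := T.2.map π
    by_cases hT1 : (T : Subgroup G).map π = ⊥
    · refine ⟨T, fun s hs => ?_⟩
      have : π s ∈ (T : Subgroup G).map π := Subgroup.mem_map_of_mem π hs
      rw [hT1, Subgroup.mem_bot] at this
      rw [this, mul_one, one_mul]
    haveI : Nontrivial ((T : Subgroup G).map π) := (Subgroup.nontrivial_iff_ne_bot _).2 hT1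
    haveI := hTp.center_nontrivial
    obtain ⟨z, hz⟩ := exists_prime_orderOf_dvd_card' (G := Subgroup.center ((T : Subgroup G).map π)) 2
      ((hTp.to_subgroup _).card_eq_or_dvd.resolve_left fun h1 =>
        (Finite.one_lt_card (α := Subgroup.center ((T : Subgroup G).map π))).ne' h1)
    have hz1 : ((z : (T : Subgroup G).map π) : G ⧸ Subgroup.center G) ≠ 1 := by
      intro h1
      have : z = 1 := Subtype.ext (Subtype.ext h1)
      rw [this, orderOf_one] at hz
      omega
    have hzz : ((z : (T : Subgroup G).map π) : G ⧸ Subgroup.center G) *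
        ((z : (T : Subgroup G).map π) : G ⧸ Subgroup.center G) = 1 := by
      have := pow_orderOf_eq_one z
      rw [hz, pow_two] at this
      exact congrArg (fun t : Subgroup.center ((T : Subgroup G).map π) =>
        ((t : (T : Subgroup G).map π) : G ⧸ Subgroup.center G)) this
    obtain ⟨c, hc⟩ : ∃ c : G ⧸ Subgroup.center G,
        c * ((z : (T : Subgroup G).map π) : G ⧸ Subgroup.center G) * c⁻¹ = π x := by
      have hci := psl_isConj_of_sq_eq_one h2
        (x := e ((z : (T : Subgroup G).map π) : G ⧸ Subgroup.center G)) (y := e (π x))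
        (fun he => hz1 (e.injective (he.trans (map_one e).symm)))
        (by rw [← map_mul, hzz, map_one])
        (fun he => hxb (e.injective (he.trans (map_one e).symm)))
        (by rw [← map_mul, hsq, map_one])
      obtain ⟨c, hc⟩ := isConj_iff.1 hci
      refine ⟨e.symm c, e.injective ?_⟩
      simpa using hc
    obtain ⟨g, rfl⟩ := hπs c
    refine ⟨g • T, fun s hs => ?_⟩
    rw [Sylow.coe_subgroup_smul, Subgroup.mem_pointwise_smul_iff_inv_smul_mem] at hs
    have hzc := Subgroup.mem_center_iff.1 z.2 ⟨_, Subgroup.mem_map_of_mem π hs⟩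
    have hzc' := congrArg Subtype.val hzc
    simp only [Subgroup.coe_mul, MulAut.smul_def, ← map_inv, MulAut.conj_apply, map_mul, inv_inv]
      at hzc'
    rw [← hc]
    have : π s = π g * (π g⁻¹ * π s * π g) * (π g)⁻¹ := by simp [mul_assoc]
    rw [this]
    calc π g * _ * (π g)⁻¹ * (π g * (π g⁻¹ * π s * π g) * (π g)⁻¹)
        = π g * (((z : (T : Subgroup G).map π) : G ⧸ Subgroup.center G) * (π g⁻¹ * π s * π g)) *
            (π g)⁻¹ := by group
      _ = π g * ((π g⁻¹ * π s * π g) * ((z : (T : Subgroup G).map π) : G ⧸ Subgroup.center G)) *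
            (π g)⁻¹ := by rw [hzc']
      _ = _ := by group
  have hxS : ∀ s ∈ (S : Subgroup G), Commute x s := by
    intro s hs
    have hsK : s ∈ K := by
      rw [hK, Subgroup.mem_comap, Subgroup.mem_centralizer_singleton_iff]
      exact (hSx s hs).symm
    exact (Subgroup.mem_centralizer_singleton_iff.1 (hKM ▸ hsK : s ∈ M)).symm
  -- split `x` into a 2-element and a central element
  have hx2 : x * x ∈ Subgroup.center G := (hπk _).1 (by rw [map_mul]; exact hsq)
  obtain ⟨k, m, hm, hxo⟩ : ∃ k m : ℕ, Odd m ∧ orderOf x = 2 ^ k * m := by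
    obtain ⟨k, m, hm, hxo⟩ := Nat.exists_eq_two_pow_mul_odd (orderOf_pos x).ne'
    exact ⟨k, m, hm, hxo⟩
  have hw : x ^ m ∈ Subgroup.center G := by
    have hp : IsPGroup 2 (Subgroup.zpowers (x ^ m)) := by
      refine IsPGroup.of_card (n := k) ?_
      rw [Nat.card_zpowers, orderOf_pow_of_dvd hm.pos.ne' ⟨2 ^ k, by rw [hxo, mul_comm]⟩, hxo,
        Nat.mul_div_cancel _ hm.pos]
    have hle : Subgroup.zpowers (x ^ m) ≤ Subgroup.normalizer ((S : Subgroup G) : Set G) :=
      Subgroup.zpowers_le.2 (Subgroup.mem_normalizer_iff.2 fun s =>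
        ⟨fun hs => by rwa [((hxS s hs).pow_left m).eq, mul_inv_cancel_right],
         fun hs => by
          have := ((hxS _ hs).pow_left m).eq
          have e' : s = x ^ m * s * (x ^ m)⁻¹ := by
            calc s = (x ^ m)⁻¹ * (x ^ m * s * (x ^ m)⁻¹ * x ^ m) := by group
              _ = (x ^ m)⁻¹ * (x ^ m * (x ^ m * s * (x ^ m)⁻¹)) := by rw [this]
              _ = _ := by group
          rwa [← e'] at hs⟩)
    have hsup : IsPGroup 2 (Subgroup.zpowers (x ^ m) ⊔ (S : Subgroup G) : Subgroup G) :=
      hp.to_sup_of_normal_right' S.2 hle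
    have hmem : x ^ m ∈ (S : Subgroup G) :=
      (S.3 hsup le_sup_right) ▸ Subgroup.mem_sup_left (Subgroup.mem_zpowers _)
    exact hS S _ hmem fun s hs => (hxS s hs).pow_left m
  obtain ⟨j, rfl⟩ := hm
  rw [pow_add, pow_one, pow_mul, pow_two] at hw
  exact hx.1 ((Subgroup.mul_mem_cancel_left _ (pow_mem hx2 j)).1 hw)

end CfsgLib.MinNonCA98
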