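import Mathlib
import Cfsg.Agent.MinNonCA98.OddCenterBasic
import Cfsg.Agent.CAGroups.AbelianInvolutionSplit
import Cfsg.Agent.S2086

/-!
# The centre has odd order: the elementary abelian case

`OddCtx.false_of_elementary`: there is no `OddCtx G` with a Sylow 2-subgroup `S` which is
elementary abelian modulo the centre and in which `S / C_S(w)` is noncyclic for all `w ∈ S`
outside the centre.  For `w ∈ S` outside the centre the elements of odd order of `C(w)` centralise
`S`, so the involution centralisers of `G / Z(G)` are abelian; by Suzuki's theorem `G / Z(G)` is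
`SL(2, 2^n)` with `n ≥ 3`, whose multiplier is trivial.
-/

set_option autoImplicit false
set_option linter.style.haveILetI false
set_option linter.unusedSectionVars false

open scoped Pointwise

namespace CfsgLib.MinNonCA98

open CfsgLib.StronglyEmbedded (orderOf_two_iff)

universe u

variable {G : Type u} [Group G]

/-- The hypothesis of the elementary case, at one Sylow 2-subgroup. -/
structure Elem76 (S : Subgroup G) : Prop where
  comm : ∀ s ∈ S, ∀ t ∈ S, Commute (s : G ⧸ Subgroup.center G) (t : G ⧸ Subgroup.center G)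
  sq : ∀ s ∈ S, s * s ∈ Subgroup.center G
  big : ∀ w ∈ S, w ∉ Subgroup.center G →
    ∃ s ∈ S, ∃ t ∈ S, ¬ Commute w s ∧ ¬ Commute w t ∧ ¬ Commute w (s * t)

theorem Elem76.conj {S : Subgroup G} (h : Elem76 S) (g : G) :
    Elem76 (S.map (MulAut.conj g).toMonoidHom) := by
  have hZ : ∀ {a : G}, a ∈ Subgroup.center G → g * a * g⁻¹ = a := fun {a} ha => by
    rw [Subgroup.mem_center_iff.mp ha g, mul_inv_cancel_right]
  have hc : ∀ {a b : G}, Commute ((MulAut.conj g).toMonoidHom a) ((MulAut.conj g).toMonoidHom b) →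
      Commute a b := fun {a b} hab =>
    (MulAut.conj g).injective (by simpa [map_mul] using hab.eq)
  refine ⟨?_, ?_, ?_⟩
  · rintro _ ⟨s, hs, rfl⟩ _ ⟨t, ht, rfl⟩
    have := (h.comm s hs t ht).map (MulAut.conj (g : G ⧸ Subgroup.center G)).toMonoidHom
    simpa using this
  · rintro _ ⟨s, hs, rfl⟩
    rw [← map_mul]
    show g * (s * s) * g⁻¹ ∈ _
    rw [hZ (h.sq s hs)]
    exact h.sq s hs
  · rintro _ ⟨w, hw, rfl⟩ hwZ
    have hwZ' : w ∉ Subgroup.center G := fun hh => hwZ (by
      show g * w * g⁻¹ ∈ _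
      rw [hZ hh]; exact hh)
    obtain ⟨s, hs, t, ht, h1, h2, h3⟩ := h.big w hw hwZ'
    exact ⟨_, ⟨s, hs, rfl⟩, _, ⟨t, ht, rfl⟩, fun e => h1 (hc e), fun e => h2 (hc e),
      fun e => h3 (hc (by rwa [map_mul]))⟩

namespace OddCtx

open OddCenter

local notation "π" => QuotientGroup.mk' (Subgroup.center G)

variable (c : OddCtx G)
include c
variable [Finite G]

theorem elem76_of_one {S : Sylow 2 G} (h : Elem76 (S : Subgroup G)) (T : Sylow 2 G) :
    Elem76 (T : Subgroup G) := by
  obtain ⟨g, rfl⟩ := MulAction.exists_smul_eq G S T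
  have : ((g • S : Sylow 2 G) : Subgroup G) = (S : Subgroup G).map (MulAut.conj g).toMonoidHom := by
    rw [Sylow.coe_subgroup_smul]
    rfl
  rw [this]
  exact h.conj g

/-- An element commuting with two noncommuting elements of `S` centralises `S`. -/
theorem centralize_sylow76 (S : Sylow 2 G) (hS : Elem76 (S : Subgroup G)) {w s e : G} (hw : w ∈ S)
    (hs : s ∈ S) (hws : ¬ Commute w s) (hew : Commute e w) (hes : Commute e s) :
    ∀ x ∈ S, Commute e x := by
  by_cases heZ : e ∈ Subgroup.center G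
  · exact fun x _ => mul_center_comm heZ x
  set T : Subgroup G := (S : Subgroup G) ⊓ Subgroup.centralizer ({e} : Set G) with hT
  have hmem : ∀ a, a ∈ T ↔ a ∈ S ∧ Commute e a := fun a =>
    and_congr_right fun _ => Subgroup.mem_centralizer_singleton_iff.trans
      ⟨fun h => h.symm, fun h => h.symm⟩
  have hTp : IsPGroup 2 T := S.2.to_le inf_le_left
  have hwT : w ∈ T := (hmem w).mpr ⟨hw, hew⟩
  have hsT : s ∈ T := (hmem s).mpr ⟨hs, hes⟩
  have hwZ : w ∉ Subgroup.center G := fun h => hws (mul_center_comm h s)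
  have hred : Red e := ⟨heZ, w, s, hew, hes, hws⟩
  have heN : e ∈ Subgroup.normalizer (T : Set G) := by
    refine Subgroup.mem_normalizer_fintype (S := (T : Set G)) fun a ha => ?_
    rwa [((hmem a).mp ha).2.eq, mul_inv_cancel_right]
  have hle := hred.le_centralizer c.mn (c.normalizer_ne_top hTp hwT hwZ) heN
    (Subgroup.le_normalizer hwT) (Subgroup.le_normalizer hsT) hew hes hws
  intro x hx
  have hxN : x ∈ Subgroup.normalizer (T : Set G) := by
    refine Subgroup.mem_normalizer_fintype (S := (T : Set G)) fun a ha => ?_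
    obtain ⟨haS, hea⟩ := (hmem a).mp ha
    refine (hmem _).mpr ⟨mul_mem (mul_mem hx haS) (inv_mem hx), ?_⟩
    have hz : x * a * x⁻¹ * a⁻¹ ∈ Subgroup.center G := commute_mk_iff.mp (hS.comm x hx a haS)
    have := (mul_center_comm hz e).symm.mul_right hea
    rwa [inv_mul_cancel_right] at this
  exact (Subgroup.mem_centralizer_singleton_iff.mp (hle hxN)).symm

/-- An element of odd order centralising `w ∈ S`, `w` noncentral, centralises `S`. -/
theorem centralize_of_odd76 (S : Sylow 2 G) (hS : Elem76 (S : Subgroup G)) {w u : G} (hw : w ∈ S)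
    (hwZ : w ∉ Subgroup.center G) (hu : Odd (orderOf u)) (huw : Commute u w) :
    ∀ x ∈ S, Commute u x := by
  obtain ⟨s, hs, t, ht, hws, hwt, hwst⟩ := hS.big w hw hwZ
  -- conjugation by elements of `S` preserves `C(w)`, which is abelian
  have hconj : ∀ x ∈ S, ∀ y, Commute y w → Commute (x * y * x⁻¹) w := by
    intro x hx y hy
    have h1 := hy.map (MulAut.conj x).toMonoidHom
    simp only [MulEquiv.coe_toMonoidHom, MulAut.conj_apply] at h1
    have hz : x * w * x⁻¹ * w⁻¹ ∈ Subgroup.center G := commute_mk_iff.mp (hS.comm x hx w hw)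
    have := h1.mul_right (mul_center_comm (inv_mem hz) (x * y * x⁻¹)).symm
    have e : x * w * x⁻¹ * (x * w * x⁻¹ * w⁻¹)⁻¹ = w := by
      rw [(mul_center_comm (inv_mem hz) (x * w * x⁻¹)).symm.eq]; group
    rwa [e] at this
  have hab : ∀ {y z : G}, Commute y w → Commute z w → Commute y z := fun hy hz =>
    c.commute_of_witness (hS.comm s hs w hw) hws hy.symm hz.symm
  have hsq : ∀ x ∈ S, ∀ y, x * (x * y * x⁻¹) * x⁻¹ = y := by
    intro x hx y
    calc x * (x * y * x⁻¹) * x⁻¹ = (x * x) * y * (x * x)⁻¹ := by group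
      _ = y := by rw [(mul_center_comm (hS.sq x hx) y).eq, mul_inv_cancel_right]
  -- `y * x y x⁻¹` centralises `S`
  have hfix : ∀ x ∈ S, ¬ Commute w x → ∀ y, Commute y w →
      ∀ r ∈ S, Commute (y * (x * y * x⁻¹)) r := by
    intro x hx hwx y hy
    refine c.centralize_sylow76 S hS hw hx hwx (hy.mul_left (hconj x hx y hy)) ?_
    have e : x * (y * (x * y * x⁻¹)) * x⁻¹ = y * (x * y * x⁻¹) := by
      calc x * (y * (x * y * x⁻¹)) * x⁻¹ = (x * y * x⁻¹) * (x * (x * y * x⁻¹) * x⁻¹) := by group
        _ = (x * y * x⁻¹) * y := by rw [hsq x hx y]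
        _ = _ := (hab (hconj x hx y hy) hy).eq
    exact (mul_inv_eq_iff_eq_mul.mp e).symm
  set us := s * u * s⁻¹ with hus
  set ut := t * u * t⁻¹ with hut
  set ust := s * ut * s⁻¹ with hust
  have h_us : Commute us w := hconj s hs u huw
  have h_ut : Commute ut w := hconj t ht u huw
  have h_ust : Commute ust w := hconj s hs ut h_ut
  have e_st : s * t * u * (s * t)⁻¹ = ust := by rw [hust, hut]; group
  set d := u * us * (ut * ust) with hd
  have hdS : ∀ r ∈ S, Commute d r := by
    have hdw : Commute d w := (huw.mul_left h_us).mul_left (h_ut.mul_left h_ust)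
    refine c.centralize_sylow76 S hS hw hs hws hdw ?_
    have e : s * d * s⁻¹ = d := by
      calc s * d * s⁻¹ = (s * u * s⁻¹) * (s * us * s⁻¹) * ((s * ut * s⁻¹) * (s * ust * s⁻¹)) := by
            rw [hd]; group
        _ = us * u * (ust * ut) := by rw [hsq s hs u, hsq s hs ut, ← hus, ← hust]
        _ = d := by rw [(hab h_us huw).eq, (hab h_ust h_ut).eq]
    exact (mul_inv_eq_iff_eq_mul.mp e).symm
  intro r hr
  have ha : Commute (u * us) r := hfix s hs hws u huw r hr
  have hb : Commute (u * ut) r := hfix t ht hwt u huw r hr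
  have hcc : Commute (u * ust) r := by
    have := hfix (s * t) (mul_mem hs ht) hwst u huw r hr
    rwa [e_st] at this
  have e2 : u * us * (u * ut) * (u * ust) * d⁻¹ = u * u := by
    rw [mul_inv_eq_iff_eq_mul, hd]
    calc u * us * (u * ut) * (u * ust) = u * (us * u) * (ut * u) * ust := by group
      _ = u * (u * us) * (u * ut) * ust := by rw [(hab h_us huw).eq, (hab h_ut huw).eq]
      _ = u * u * (us * u) * ut * ust := by group
      _ = u * u * (u * us) * ut * ust := by rw [(hab h_us huw).eq]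
      _ = u * u * (u * us * (ut * ust)) := by group
  have hu2 : Commute (u * u) r := by
    rw [← e2]
    exact (((ha.mul_left hb).mul_left hcc).mul_left (hdS r hr).inv_left)
  obtain ⟨j, hj⟩ := hu
  have e3 : u = (u * u) ^ (j + 1) := by
    rw [← sq, ← pow_mul, show 2 * (j + 1) = orderOf u + 1 by omega, pow_succ, pow_orderOf_eq_one,
      one_mul]
  rw [e3]
  exact hu2.pow_left _

/-- The centraliser of an involution of `G / Z(G)` is abelian. -/
theorem abelian_centralizer76 (S : Sylow 2 G) (hS : Elem76 (S : Subgroup G)) {w : G} (hw : w ∈ S)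
    (hwZ : w ∉ Subgroup.center G) :
    IsMulCommutative (Subgroup.centralizer ({(w : G ⧸ Subgroup.center G)} : Set _)) := by
  haveI : Fact (Nat.Prime 2) := ⟨Nat.prime_two⟩
  set X := Subgroup.centralizer ({(w : G ⧸ Subgroup.center G)} : Set _) with hX
  have hmemX : ∀ q, q ∈ X ↔ Commute q (w : G ⧸ Subgroup.center G) := fun q =>
    Subgroup.mem_centralizer_singleton_iff
  obtain ⟨kw, hkw⟩ := exists_pow_eq_one_of_mem S hw
  have hwit : ∃ v : G, Commute (v : G ⧸ Subgroup.center G) (w : G ⧸ Subgroup.center G) ∧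
      ¬ Commute w v := by
    obtain ⟨s, hs, -, -, hws, -, -⟩ := hS.big w hw hwZ
    exact ⟨s, hS.comm s hs w hw, hws⟩
  -- odd order elements of `X` lift to odd order elements of `C(w)`
  have hodd : ∀ q ∈ X, Odd (orderOf q) → ∃ u : G, (u : G ⧸ Subgroup.center G) = q ∧
      Odd (orderOf u) ∧ Commute u w := by
    intro q hq hqo
    obtain ⟨u, rfl, hu⟩ := exists_odd_lift q hqo
    refine ⟨u, rfl, hu, commute_of_coprime ((hmemX _).mp hq) ?_⟩
    exact Nat.Coprime.coprime_dvd_left (orderOf_dvd_of_pow_eq_one hkw)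
      ((Nat.coprime_two_left.mpr hu).pow_left kw)
  -- they are central in `X`
  have hcent : ∀ q ∈ X, Odd (orderOf q) → ∀ y ∈ X, Commute q y := by
    intro q hq hqo y hy
    obtain ⟨u, rfl, hu, huw⟩ := hodd q hq hqo
    obtain ⟨k, m, hm, hym⟩ := Nat.exists_eq_two_pow_mul_odd (orderOf_pos y).ne'
    have hycop : Nat.Coprime (2 ^ k) m := (Nat.coprime_two_left.mpr hm).pow_left k
    have h1 : Commute (u : G ⧸ Subgroup.center G) (y ^ m) := by
      have hp : (y ^ m) ^ 2 ^ k = 1 := by rw [← pow_mul, mul_comm, ← hym, pow_orderOf_eq_one]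
      obtain ⟨g, hg, b, hgb⟩ := exists_prime_pow_lift Nat.prime_two _ hp
      -- a Sylow 2-subgroup containing `w` and `g`
      have hgw : Commute (g : G ⧸ Subgroup.center G) (w : G ⧸ Subgroup.center G) := by
        rw [hg]; exact ((hmemX _).mp hy).pow_left m
      have hle : Subgroup.zpowers (g : G ⧸ Subgroup.center G) ≤ Subgroup.normalizer
          ((Subgroup.zpowers (w : G ⧸ Subgroup.center G) : Subgroup (G ⧸ Subgroup.center G)) :
            Set (G ⧸ Subgroup.center G)) := by
        rw [Subgroup.zpowers_le]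
        refine Subgroup.mem_normalizer_fintype
          (S := ((Subgroup.zpowers (w : G ⧸ Subgroup.center G) : Subgroup (G ⧸ Subgroup.center G)) :
            Set (G ⧸ Subgroup.center G))) fun a ha => ?_
        obtain ⟨i, rfl⟩ := ha
        rw [(hgw.zpow_right i).eq, mul_inv_cancel_right]
        exact ⟨i, rfl⟩
      obtain ⟨P', hP'⟩ := ((isPGroup_zpowers (p := 2) (k := b)
          (g := (g : G ⧸ Subgroup.center G)) (by rw [← QuotientGroup.mk_pow, hgb]; rfl)).to_sup_of_normal_right'
        (isPGroup_zpowers (p := 2) (k := kw) (g := (w : G ⧸ Subgroup.center G))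
          (by rw [← QuotientGroup.mk_pow, hkw]; rfl)) hle).exists_le_sylow
      obtain ⟨P, rfl⟩ := Sylow.mapSurjective_surjective
        (QuotientGroup.mk'_surjective (Subgroup.center G)) 2 P'
      rw [Sylow.coe_mapSurjective] at hP'
      obtain ⟨x₁, hx₁, e₁⟩ := hP' (Subgroup.mem_sup_left (Subgroup.mem_zpowers _))
      obtain ⟨x₂, hx₂, e₂⟩ := hP' (Subgroup.mem_sup_right (Subgroup.mem_zpowers _))
      have hgP : g ∈ P := c.mem_of_mk_mem P hgb hx₁ e₁.symm
      have hwP' : w ∈ P := c.mem_of_mk_mem P hkw hx₂ e₂.symm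
      rw [← hg]
      exact commute_mk_of_commute
        (c.centralize_of_odd76 P (c.elem76_of_one hS P) hwP' hwZ hu huw g hgP)
    have h2 : Commute (u : G ⧸ Subgroup.center G) (y ^ 2 ^ k) := by
      have ho : Odd (orderOf (y ^ 2 ^ k)) := by
        rw [orderOf_pow_of_dvd (by positivity) ⟨m, hym⟩, hym, Nat.mul_div_cancel_left _ (by positivity)]
        exact hm
      obtain ⟨v, hv, -, hvw⟩ := hodd _ (pow_mem hy _) ho
      obtain ⟨v₀, hv₀, hwv₀⟩ := hwit
      rw [← hv]
      exact commute_mk_of_commute (c.commute_of_witness hv₀ hwv₀ huw.symm hvw.symm)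
    obtain ⟨i, j, hij⟩ : ∃ i j : ℤ, i * (m : ℤ) + j * ((2 ^ k : ℕ) : ℤ) = 1 :=
      Int.isCoprime_iff_gcd_eq_one.mpr (by
        rw [Int.gcd_natCast_natCast]; exact hycop.symm)
    have e : y = (y ^ m) ^ i * (y ^ 2 ^ k) ^ j := by
      rw [← zpow_natCast, ← zpow_natCast y (2 ^ k), ← zpow_mul, ← zpow_mul, ← zpow_add,
        mul_comm (m : ℤ), mul_comm ((2 ^ k : ℕ) : ℤ), hij, zpow_one]
    rw [e]
    exact (h1.zpow_right i).mul_right (h2.zpow_right j)
  -- so `X = (S / Z) Z(X)`
  set Sb : Sylow 2 (G ⧸ Subgroup.center G) :=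
    S.mapSurjective (f := π) (QuotientGroup.mk'_surjective _) with hSb
  have hSbc : ∀ a ∈ Sb, ∀ b ∈ Sb, Commute a b := by
    intro a ha b hb
    change a ∈ (Sb : Subgroup _) at ha
    change b ∈ (Sb : Subgroup _) at hb
    rw [hSb, Sylow.coe_mapSurjective] at ha hb
    obtain ⟨a, ha, rfl⟩ := ha
    obtain ⟨b, hb, rfl⟩ := hb
    exact hS.comm a ha b hb
  have hwSb : (w : G ⧸ Subgroup.center G) ∈ (Sb : Subgroup _) := by
    rw [hSb, Sylow.coe_mapSurjective]
    exact ⟨w, hw, rfl⟩
  have hSX : (Sb : Subgroup _) ≤ X := fun a ha => (hmemX a).mpr (hSbc a ha _ hwSb)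
  set Y : Subgroup X := Subgroup.center X ⊔ (Sb : Subgroup _).subgroupOf X with hY
  have hYt : Y = ⊤ := by
    rw [← Subgroup.index_eq_one]
    have h1 : Y.index ∣ ((Sb : Subgroup _).subgroupOf X).index :=
      Subgroup.index_dvd_of_le le_sup_right
    have h2 : Y.index ∣ (Subgroup.center X).index := Subgroup.index_dvd_of_le le_sup_left
    have h3 : Odd ((Sb : Subgroup _).subgroupOf X).index := by
      have := (Sb.subtype hSX).not_dvd_index
      rw [Sylow.coe_subtype] at this
      exact Nat.odd_iff.mpr (Nat.two_dvd_ne_zero.mp this)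
    have hp : IsPGroup 2 (X ⧸ Subgroup.center X) := by
      intro q
      obtain ⟨g, rfl⟩ := QuotientGroup.mk_surjective q
      obtain ⟨k, m, hm, hgm⟩ := Nat.exists_eq_two_pow_mul_odd (orderOf_pos g).ne'
      refine ⟨k, ?_⟩
      rw [← QuotientGroup.mk_pow, QuotientGroup.eq_one_iff, Subgroup.mem_center_iff]
      intro y
      have ho : Odd (orderOf ((g ^ 2 ^ k : X) : G ⧸ Subgroup.center G)) := by
        rw [Subgroup.orderOf_coe, orderOf_pow_of_dvd (by positivity) ⟨m, hgm⟩, hgm,
          Nat.mul_div_cancel_left _ (by positivity)]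
        exact hm
      exact Subtype.ext (hcent _ (g ^ 2 ^ k : X).2 ho y y.2).symm.eq
    obtain ⟨n, hn⟩ := IsPGroup.iff_card.mp hp
    rw [← Subgroup.index_eq_card] at hn
    obtain ⟨i, -, hi⟩ := (Nat.dvd_prime_pow Nat.prime_two).mp (hn ▸ h2)
    rcases Nat.eq_zero_or_pos i with rfl | hi'
    · rw [hi, pow_zero]
    · exfalso
      have : Even Y.index := by rw [hi]; exact (Nat.even_pow.mpr ⟨even_two, hi'.ne'⟩)
      exact Nat.not_even_iff_odd.mpr (h3.of_dvd_nat h1) this
  refine ⟨⟨fun a b => ?_⟩⟩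
  have hYc : ∀ a ∈ Y, ∀ b ∈ Y, Commute a b := by
    intro a ha b hb
    rw [hY, Subgroup.mem_sup_of_normal_left] at ha hb
    obtain ⟨za, hza, sa, hsa, rfl⟩ := ha
    obtain ⟨zb, hzb, sb, hsb, rfl⟩ := hb
    have hss : Commute sa sb := Subtype.ext (hSbc _ hsa _ hsb).eq
    exact ((mul_center_comm hza _).mul_left ((mul_center_comm hzb sa).symm.mul_right hss))
  exact hYc a (hYt ▸ Subgroup.mem_top a) b (hYt ▸ Subgroup.mem_top b)

/-- The elementary case does not occur. -/
theorem false_of_elementary {S : Sylow 2 G} (hS : Elem76 (S : Subgroup G)) : False := by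
  classical
  haveI : Fact (Nat.Prime 2) := ⟨Nat.prime_two⟩
  haveI := c.simple
  set Sb : Sylow 2 (G ⧸ Subgroup.center G) :=
    S.mapSurjective (f := π) (QuotientGroup.mk'_surjective _) with hSb
  have hcoe : (Sb : Subgroup (G ⧸ Subgroup.center G)) = (S : Subgroup G).map π := by
    rw [hSb, Sylow.coe_mapSurjective]
  -- a noncentral element of `S` and the size of `S / Z`
  obtain ⟨a, ha, b, hb, hab⟩ := c.sylow_not_comm S
  have haZ : a ∉ Subgroup.center G := fun h => hab (mul_center_comm h b)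
  obtain ⟨s, hs, t, ht, has, hat, hast⟩ := hS.big a ha haZ
  have hne : ∀ x y : G, Commute a x → ¬ Commute a y →
      (x : G ⧸ Subgroup.center G) ≠ (y : G ⧸ Subgroup.center G) := fun x y hx hy he =>
    hy ((commute_iff_of_mk_eq he).mp hx.symm).symm
  have hsq : ∀ q ∈ (Sb : Subgroup (G ⧸ Subgroup.center G)), q * q = 1 := by
    rw [hcoe]
    rintro _ ⟨x, hx, rfl⟩
    rw [← map_mul]
    exact mk_eq_one.mpr (hS.sq x hx)
  have hT4 : 4 < Nat.card (Sb : Subgroup (G ⧸ Subgroup.center G)) := by
    have hmem : ∀ x ∈ S, (x : G ⧸ Subgroup.center G) ∈ (Sb : Subgroup (G ⧸ Subgroup.center G)) :=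
      fun x hx => hcoe ▸ ⟨x, hx, rfl⟩
    have h1a : ((1 : G) : G ⧸ Subgroup.center G) ≠ a := fun h => haZ (mk_eq_one.mp h.symm)
    have hst : (s : G ⧸ Subgroup.center G) ≠ t := by
      intro h
      refine hast ?_
      have h2 : ((s * t : G) : G ⧸ Subgroup.center G) = ((t * t : G) : G ⧸ Subgroup.center G) := by
        rw [QuotientGroup.mk_mul, QuotientGroup.mk_mul, h]
      exact ((commute_iff_of_mk_eq h2).mpr (mul_center_comm (hS.sq t ht) a)).symm
    have hs1 : (s : G ⧸ Subgroup.center G) ≠ (s * t : G) := by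
      intro h
      rw [QuotientGroup.mk_mul, left_eq_mul] at h
      exact hat (mul_center_comm (mk_eq_one.mp h) a).symm
    have ht1 : (t : G ⧸ Subgroup.center G) ≠ (s * t : G) := by
      intro h
      rw [QuotientGroup.mk_mul, right_eq_mul] at h
      exact has (mul_center_comm (mk_eq_one.mp h) a).symm
    have n1 := hne 1 s (Commute.one_right a) has
    have n2 := hne 1 t (Commute.one_right a) hat
    have n3 := hne 1 (s * t) (Commute.one_right a) hast
    have n4 := hne a s (Commute.refl a) has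
    have n5 := hne a t (Commute.refl a) hat
    have n6 := hne a (s * t) (Commute.refl a) hast
    have hle : ({((1 : G) : G ⧸ Subgroup.center G), (a : G ⧸ Subgroup.center G),
        (s : G ⧸ Subgroup.center G), (t : G ⧸ Subgroup.center G),
        ((s * t : G) : G ⧸ Subgroup.center G)} : Set (G ⧸ Subgroup.center G)) ⊆
        ((Sb : Subgroup (G ⧸ Subgroup.center G)) : Set (G ⧸ Subgroup.center G)) := by
      simp only [Set.insert_subset_iff, Set.singleton_subset_iff]
      exact ⟨hmem 1 (one_mem _), hmem a ha, hmem s hs, hmem t ht, hmem _ (mul_mem hs ht)⟩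
    have h5 := Set.ncard_le_ncard hle (Set.toFinite _)
    rw [Set.ncard_insert_of_notMem
        (by simp only [Set.mem_insert_iff, Set.mem_singleton_iff, not_or]; exact ⟨h1a, n1, n2, n3⟩)
        (Set.toFinite _),
      Set.ncard_insert_of_notMem
        (by simp only [Set.mem_insert_iff, Set.mem_singleton_iff, not_or]; exact ⟨n4, n5, n6⟩)
        (Set.toFinite _),
      Set.ncard_insert_of_notMem
        (by simp only [Set.mem_insert_iff, Set.mem_singleton_iff, not_or]; exact ⟨hst, hs1⟩)
        (Set.toFinite _),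
      Set.ncard_pair ht1] at h5
    rw [← Nat.card_coe_set_eq] at h5
    change _ ≤ Nat.card (Sb : Subgroup (G ⧸ Subgroup.center G)) at h5
    omega
  -- the hypotheses of Suzuki's theorem
  have hyp : CfsgLib.CAGroups.AbelianCent.Hyp Sb := by
    refine ⟨?_, ?_, ?_⟩
    · intro hcyc
      obtain ⟨g, hg⟩ := hcyc.exists_generator
      have hg2 : orderOf g ∣ 2 := orderOf_dvd_of_pow_eq_one
        (Subtype.ext (by rw [Subgroup.coe_pow, sq]; exact hsq g g.2))
      have := Nat.le_of_dvd two_pos hg2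
      rw [orderOf_eq_card_of_forall_mem_zpowers hg] at this
      omega
    · intro hn
      rcases hn.eq_bot_or_eq_top with h | h
      · rw [h, Subgroup.card_bot] at hT4
        omega
      · obtain ⟨q, r, hqr⟩ := c.exists_not_commute
        have hq : q ∈ (Sb : Subgroup (G ⧸ Subgroup.center G)) := h ▸ Subgroup.mem_top q
        have hr : r ∈ (Sb : Subgroup (G ⧸ Subgroup.center G)) := h ▸ Subgroup.mem_top r
        rw [hcoe] at hq hr
        obtain ⟨x, hx, rfl⟩ := hq
        obtain ⟨y, hy, rfl⟩ := hr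
        exact hqr (hS.comm x hx y hy)
    · intro q hq
      obtain ⟨P, hP⟩ := (IsPGroup.of_card (n := 1) (G := Subgroup.zpowers q)
        (by rw [Nat.card_zpowers, hq, pow_one])).exists_le_sylow
      obtain ⟨Q, hQ⟩ : ∃ Q : Sylow 2 G, Q.mapSurjective (f := π)
          (QuotientGroup.mk'_surjective _) = P :=
        Sylow.mapSurjective_surjective (QuotientGroup.mk'_surjective _) _ P
      have hqQ : q ∈ (Q : Subgroup G).map π := by
        rw [← Sylow.coe_mapSurjective (QuotientGroup.mk'_surjective _) Q, hQ]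
        exact hP (Subgroup.mem_zpowers q)
      obtain ⟨w, hw, rfl⟩ := hqQ
      refine c.abelian_centralizer76 Q (c.elem76_of_one hS Q) hw fun h => ?_
      rw [show π w = 1 from mk_eq_one.mpr h, orderOf_one] at hq
      omega
  obtain ⟨A, hA⟩ := CfsgLib.CAGroups.AbelianCent.exists_split hyp
  obtain ⟨F, iF, iF', φ, hchar, -, hcard, hφ, hker⟩ := hA.sl2 hyp
  have hA1 : A = ⊥ := le_bot_iff.mp (c.center_quotient ▸ hA.le_center)
  rw [hA1] at hker
  let e₁ := MulEquiv.ofBijective φ ⟨(MonoidHom.ker_eq_bot_iff φ).mp hker, hφ⟩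
  haveI := hchar
  let e₂ : (G ⧸ Subgroup.center G) ≃* Matrix.ProjectiveSpecialLinearGroup (Fin 2) F :=
    e₁.trans ((QuotientGroup.quotientBot (G := Matrix.SpecialLinearGroup (Fin 2) F)).symm.trans
      (QuotientGroup.quotientMulEquivOfEq CfsgLib.SL2.center_eq_bot.symm))
  have h8 : 4 < Fintype.card F := by rw [hcard]; exact hT4
  obtain ⟨n, -, hn⟩ := FiniteField.card F 2
  have hne9 : Fintype.card F ≠ 9 := by
    intro h9
    have : 2 ∣ (9 : ℕ) := h9 ▸ hn ▸ dvd_pow_self 2 n.pos.ne'
    omega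
  have hmult := Cfsg.Agent.S2086.result (F := F) rfl 2 le_rfl (fun _ => by omega) (by
    simp only [Set.mem_insert_iff, Set.mem_singleton_iff, Prod.mk.injEq]
    rintro (⟨-, h⟩ | ⟨-, h⟩ | ⟨h, -⟩ | ⟨h, -⟩ | ⟨h, -⟩) <;> omega)
  -- the extension, moved to `Type`
  haveI : Small.{0} G := inferInstance
  let eG : Shrink.{0} G ≃* G := Shrink.mulEquiv
  haveI : Finite (Shrink.{0} G) := Finite.of_equiv G eG.symm.toEquiv
  set σ : Shrink.{0} G →* Matrix.ProjectiveSpecialLinearGroup (Fin 2) F :=
    (e₂.toMonoidHom.comp π).comp eG.toMonoidHom with hσ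
  have hker' : ∀ x, x ∈ σ.ker ↔ eG x ∈ Subgroup.center G := by
    intro x
    rw [MonoidHom.mem_ker, hσ]
    simp
  have hstem : Cfsg.IsStemExtension σ := by
    refine ⟨(e₂.surjective.comp (QuotientGroup.mk'_surjective _)).comp eG.surjective, ?_, ?_⟩
    · intro x hx
      rw [Subgroup.mem_center_iff]
      intro y
      apply eG.injective
      rw [map_mul, map_mul]
      exact Subgroup.mem_center_iff.mp ((hker' x).mp hx) _
    · intro x _
      have hmap : (commutator (Shrink.{0} G)).map eG.toMonoidHom = commutator G := by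
        rw [commutator_def, Subgroup.map_commutator,
          Subgroup.map_top_of_surjective eG.toMonoidHom eG.surjective, ← commutator_def]
      obtain ⟨y, hy, hyx⟩ : eG x ∈ (commutator (Shrink.{0} G)).map eG.toMonoidHom := by
        rw [hmap, c.perfect]; exact Subgroup.mem_top _
      exact eG.injective hyx ▸ hy
  obtain ⟨p, hp⟩ := hmult.2 (Shrink.{0} G) σ hstem
  have hgcd : Nat.gcd 2 (Fintype.card F - 1) = 1 := by
    have he : Even (Fintype.card F) := hn ▸ Nat.even_pow.mpr ⟨even_two, n.pos.ne'⟩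
    rw [← Nat.coprime_iff_gcd_eq_one, Nat.coprime_two_left, Nat.odd_iff]
    rw [Nat.even_iff] at he
    omega
  obtain ⟨z, hz, hz2⟩ := c.exists_center_two
  have hzk : eG.symm z ∈ σ.ker := (hker' _).mpr (by rw [MulEquiv.apply_symm_apply]; exact hz)
  obtain ⟨m, hm⟩ := hp ⟨_, hzk⟩
  haveI : Subsingleton (Multiplicative (ZMod (Nat.gcd 2 (Fintype.card F - 1)))) := by
    rw [hgcd]; infer_instance
  rw [Subsingleton.elim m 1, map_one] at hm
  have : z = 1 := by
    rw [← eG.apply_symm_apply z, ← show ((1 : σ.ker) : Shrink.{0} G) = eG.symm z from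
      congrArg Subtype.val hm, OneMemClass.coe_one, map_one]
  rw [this, orderOf_one] at hz2
  omega

end OddCtx

end CfsgLib.MinNonCA98
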