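import Mathlib
import Cfsg.Agent.MinNonCA98.OddCenterShape
import Cfsg.Agent.MinNonCA98.OddCenterElem76

/-!
# The centre has odd order: elementary abelian means a four group

`OddCtx.card_sylowQ_of_sq`: if the squares in a Sylow 2-subgroup `S` are central then `S` is a
four group modulo the centre.  By `false_of_elementary` some `C_S(w)` has index 2; for a bigger
group it is the only abelian subgroup of index 2, hence invariant under `N(S)`, and Burnside's
fusion theorem contradicts Thompson's transfer lemma.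
-/

set_option autoImplicit false
set_option linter.style.haveILetI false
set_option linter.unusedSectionVars false

open scoped Pointwise

namespace CfsgLib.MinNonCA98

open CfsgLib.StronglyEmbedded (orderOf_two_iff)

variable {G : Type*} [Group G]

namespace OddCtx

open OddCenter

local notation "π" => QuotientGroup.mk' (Subgroup.center G)

variable (c : OddCtx G)
include c
variable [Finite G]

/-- If the squares in `S` are central, `S` is a four group modulo the centre. -/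
theorem card_sylowQ_of_sq (S : Sylow 2 G) (hexp : ∀ s ∈ S, s * s ∈ Subgroup.center G) :
    Nat.card (sylowQ S : Subgroup (G ⧸ Subgroup.center G)) = 4 := by
  classical
  haveI : Fact (Nat.Prime 2) := ⟨Nat.prime_two⟩
  set P := (sylowQ S : Subgroup (G ⧸ Subgroup.center G)) with hP
  have hP1 : ∀ p ∈ P, p * p = 1 := by
    intro p hp
    obtain ⟨s, hs, rfl⟩ := (c.mem_sylowQ S).mp hp
    rw [← QuotientGroup.mk_mul]
    exact mk_eq_one.mpr (hexp s hs)
  have hPc : ∀ a ∈ P, ∀ b ∈ P, Commute a b := fun a ha b hb => by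
    show a * b = b * a
    rw [← inv_eq_of_mul_eq_one_right (hP1 _ (mul_mem ha hb)), mul_inv_rev,
      inv_eq_of_mul_eq_one_right (hP1 a ha), inv_eq_of_mul_eq_one_right (hP1 b hb)]
  have hScomm : ∀ s ∈ S, ∀ t ∈ S, Commute (s : G ⧸ Subgroup.center G) (t : G ⧸ Subgroup.center G) :=
    fun s hs t ht => hPc _ (c.mk_mem_sylowQ S hs) _ (c.mk_mem_sylowQ S ht)
  -- some `C_S(w)` has index 2
  obtain ⟨w, hw, hwZ, hwbig⟩ : ∃ w ∈ S, w ∉ Subgroup.center G ∧
      ∀ s ∈ S, ∀ t ∈ S, ¬ Commute w s → ¬ Commute w t → Commute w (s * t) := by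
    by_contra hno
    push Not at hno
    refine c.false_of_elementary (S := S) ⟨hScomm, hexp, fun w hw hwZ => ?_⟩
    obtain ⟨s, hs, t, ht, h1, h2, h3⟩ := hno w hw hwZ
    exact ⟨s, hs, t, ht, h1, h2, h3⟩
  set A : Subgroup G := (S : Subgroup G) ⊓ Subgroup.centralizer ({w} : Set G) with hA
  have hmemA : ∀ a, a ∈ A ↔ a ∈ S ∧ Commute w a := fun a =>
    and_congr_right fun _ => Subgroup.mem_centralizer_singleton_iff.trans
      ⟨fun h => h.symm, fun h => h.symm⟩
  set Y : Subgroup (G ⧸ Subgroup.center G) := A.map π with hY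
  have hYP : Y ≤ P := by
    rintro _ ⟨a, ha, rfl⟩
    exact c.mk_mem_sylowQ S ((hmemA a).mp ha).1
  have hback : ∀ s ∈ S, (s : G ⧸ Subgroup.center G) ∈ Y → Commute w s := by
    rintro s hs ⟨a, ha, hae⟩
    exact ((commute_iff_of_mk_eq hae).mp ((hmemA a).mp ha).2.symm).symm
  obtain ⟨s₀, hs₀, hs₀w⟩ : ∃ s ∈ S, ¬ Commute w s := by
    by_contra h
    push Not at h
    exact hwZ (c.center_sylow_le S hw h)
  have hs₀Y : (s₀ : G ⧸ Subgroup.center G) ∉ Y := fun h => hs₀w (hback s₀ hs₀ h)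
  -- `Y` has index 2
  have hidx : Y.relIndex P = 2 := by
    rw [Subgroup.relIndex, Subgroup.index_eq_two_iff]
    refine ⟨⟨_, c.mk_mem_sylowQ S hs₀⟩, fun b => ?_⟩
    rw [Subgroup.mem_subgroupOf, Subgroup.mem_subgroupOf, Subgroup.coe_mul]
    obtain ⟨t, ht, hte⟩ := (c.mem_sylowQ S).mp b.2
    rw [← hte]
    by_cases hb : Commute w t
    · refine Or.inr ⟨Subgroup.mem_map_of_mem π ((hmemA t).mpr ⟨ht, hb⟩), fun h' => hs₀Y ?_⟩
      have h4 := mul_mem (inv_mem (Subgroup.mem_map_of_mem π ((hmemA t).mpr ⟨ht, hb⟩))) h'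
      have h5 : (t : G ⧸ Subgroup.center G)⁻¹ *
          ((t : G ⧸ Subgroup.center G) * (s₀ : G ⧸ Subgroup.center G)) ∈ Y := h4
      rwa [inv_mul_cancel_left] at h5
    · refine Or.inl ⟨?_, fun h' => hb (hback t ht h')⟩
      rw [← QuotientGroup.mk_mul]
      exact Subgroup.mem_map_of_mem π ((hmemA _).mpr
        ⟨mul_mem ht hs₀, hwbig t ht s₀ hs₀ hb hs₀w⟩)
  by_contra hcard
  -- so `P` has at least eight elements
  obtain ⟨k, hk⟩ := IsPGroup.iff_card.mp (sylowQ S).2
  have h8 : 8 ≤ Nat.card P := by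
    have hYP2 : Nat.card Y * 2 = Nat.card P := by
      rw [← hidx, Subgroup.relIndex,
        ← Nat.card_congr (Subgroup.subgroupOfEquivOfLe hYP).toEquiv, Subgroup.card_mul_index]
    have hwY : (w : G ⧸ Subgroup.center G) ∈ Y :=
      Subgroup.mem_map_of_mem π ((hmemA w).mpr ⟨hw, Commute.refl w⟩)
    have h2 : 1 < Nat.card Y := by
      rw [Subgroup.one_lt_card_iff_ne_bot]
      intro h
      rw [h, Subgroup.mem_bot] at hwY
      exact hwZ (mk_eq_one.mp hwY)
    rcases Nat.lt_or_ge k 3 with hk3 | hk3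
    · rw [hk] at hYP2 hcard
      exfalso
      rcases (show k = 0 ∨ k = 1 ∨ k = 2 by omega) with rfl | rfl | rfl
      · rw [pow_zero] at hYP2
        omega
      · rw [pow_one] at hYP2
        omega
      · exact hcard rfl
    · rw [hk]
      calc 8 = 2 ^ 3 := rfl
        _ ≤ 2 ^ k := Nat.pow_le_pow_right two_pos hk3
  -- the elements of `A` outside the centre have centraliser `A`
  have hcent : ∀ a ∈ A, a ∉ Subgroup.center G → ∀ s ∈ S, Commute a s → Commute w s := by
    intro a ha haZ s hs has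
    obtain ⟨haS, hwa⟩ := (hmemA a).mp ha
    exact c.commute_of_commute_mem S haS haZ hw hs hwa.symm has
  -- `Y` is invariant under the normaliser
  have hinv : ∀ n ∈ Subgroup.normalizer (P : Set (G ⧸ Subgroup.center G)), ∀ x ∈ Y,
      n * x * n⁻¹ ∈ Y := by
    intro n hn
    obtain ⟨g, rfl⟩ := QuotientGroup.mk_surjective n
    have hconj : ∀ x ∈ P, (g : G ⧸ Subgroup.center G) * x * (g : G ⧸ Subgroup.center G)⁻¹ ∈ P :=
      fun x hx => (Subgroup.mem_normalizer_iff.mp hn x).mp hx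
    obtain ⟨a, ha, haZ, b, hb, hbZ, hab⟩ : ∃ a ∈ A, a ∉ Subgroup.center G ∧ ∃ b ∈ A,
        b ∉ Subgroup.center G ∧
          ((g * a * g⁻¹ : G) : G ⧸ Subgroup.center G) = (b : G ⧸ Subgroup.center G) := by
      set f : G ⧸ Subgroup.center G → G ⧸ Subgroup.center G :=
        fun x => (g : G ⧸ Subgroup.center G) * x * (g : G ⧸ Subgroup.center G)⁻¹ with hf
      suffices ∃ x ∈ Y, x ≠ 1 ∧ f x ∈ Y by
        obtain ⟨x, ⟨a, ha, rfl⟩, hx1, b, hb, hbe⟩ := this
        refine ⟨a, ha, fun h => hx1 (mk_eq_one.mpr h), b, hb, fun h => hx1 ?_, ?_⟩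
        · have : f (π a) = 1 := hbe.symm.trans (mk_eq_one.mpr h)
          rw [hf, conj_eq_one_iff] at this
          exact this
        · rw [QuotientGroup.mk_mul, QuotientGroup.mk_mul, QuotientGroup.mk_inv]
          exact hbe.symm
      obtain ⟨x₁, hx₁, x₂, hx₂, h12, h11, h21⟩ :
          ∃ x₁ ∈ Y, ∃ x₂ ∈ Y, x₁ ≠ x₂ ∧ x₁ ≠ 1 ∧ x₂ ≠ 1 := by
        have hcY : 4 ≤ Nat.card Y := by
          have := Subgroup.card_mul_index (Y.subgroupOf P)
          rw [← Subgroup.relIndex, hidx, Nat.card_congr (Subgroup.subgroupOfEquivOfLe hYP).toEquiv]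
            at this
          omega
        haveI := Fintype.ofFinite Y
        rw [Nat.card_eq_fintype_card] at hcY
        have : 1 < ((Finset.univ : Finset Y).erase 1).card := by
          rw [Finset.card_erase_of_mem (Finset.mem_univ _), Finset.card_univ]
          omega
        obtain ⟨x₁, hx₁, x₂, hx₂, hne⟩ := Finset.one_lt_card.mp this
        exact ⟨x₁, x₁.2, x₂, x₂.2, fun h => hne (Subtype.ext h),
          fun h => (Finset.mem_erase.mp hx₁).1 (Subtype.ext h),
          fun h => (Finset.mem_erase.mp hx₂).1 (Subtype.ext h)⟩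
      by_cases h1 : f x₁ ∈ Y
      · exact ⟨x₁, hx₁, h11, h1⟩
      by_cases h2 : f x₂ ∈ Y
      · exact ⟨x₂, hx₂, h21, h2⟩
      refine ⟨x₁ * x₂, mul_mem hx₁ hx₂, fun h => h12 ?_, ?_⟩
      · rw [← inv_eq_of_mul_eq_one_right (hP1 x₂ (hYP hx₂))]
        exact mul_eq_one_iff_eq_inv.mp h
      · have hi := Subgroup.mul_mem_iff_of_index_two
          (H := Y.subgroupOf P) (a := ⟨f x₁, hconj _ (hYP hx₁)⟩) (b := ⟨f x₂, hconj _ (hYP hx₂)⟩)
          hidx
        simp only [Subgroup.mem_subgroupOf, Subgroup.coe_mul, h1, h2, iff_self, iff_true] at hi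
        have e : f (x₁ * x₂) = f x₁ * f x₂ := by simp [hf, mul_assoc]
        rw [e]
        exact hi
    rintro _ ⟨x, hx, rfl⟩
    obtain ⟨s, hs, hse⟩ := (c.mem_sylowQ S).mp (hconj (π x) (hYP (Subgroup.mem_map_of_mem π hx)))
    have hax : Commute a x := by
      obtain ⟨haS, hwa⟩ := (hmemA a).mp ha
      obtain ⟨hxS, hwx⟩ := (hmemA x).mp hx
      exact c.commute_of_commute_mem S hw hwZ haS hxS hwa hwx
    have h1 : Commute (g * a * g⁻¹) (g * x * g⁻¹) := by
      simpa using hax.map (MulAut.conj g).toMonoidHom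
    have h2 : Commute b (g * x * g⁻¹) := (commute_iff_of_mk_eq hab).mp h1
    have h3 : Commute b s := by
      have e : (s : G ⧸ Subgroup.center G) = ((g * x * g⁻¹ : G) : G ⧸ Subgroup.center G) := by
        rw [hse]; simp
      exact ((commute_iff_of_mk_eq e).mpr h2.symm).symm
    rw [← hse]
    exact Subgroup.mem_map_of_mem π ((hmemA s).mpr ⟨hs, hcent b hb hbZ s hs h3⟩)
  -- transfer
  have hord : orderOf (s₀ : G ⧸ Subgroup.center G) = 2 :=
    orderOf_two_iff.mpr ⟨hP1 _ (c.mk_mem_sylowQ S hs₀), fun e => hs₀Y (e ▸ one_mem Y)⟩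
  rcases CfsgLib.Transfer.thompsonTransferLemma (sylowQ S) Y hYP hidx _ hord
    (c.mk_mem_sylowQ S hs₀) hs₀Y with ⟨N, hN, hN2, -⟩ | ⟨g, hg⟩
  · exact c.index_ne_two N hN hN2
  · haveI : IsMulCommutative (sylowQ S : Subgroup (G ⧸ Subgroup.center G)) :=
      ⟨⟨fun a b => Subtype.ext (hPc _ a.2 _ b.2).eq⟩⟩
    obtain ⟨n, hn, hne⟩ := Sylow.conj_eq_normalizer_conj_of_mem (sylowQ S)
      (s₀ : G ⧸ Subgroup.center G) g⁻¹ (c.mk_mem_sylowQ S hs₀) (by rw [inv_inv]; exact hYP hg)
    rw [inv_inv] at hne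
    have := hinv n hn _ hg
    rw [hne, show n * (n⁻¹ * (s₀ : G ⧸ Subgroup.center G) * n) * n⁻¹ = s₀ by group] at this
    exact hs₀Y this

end OddCtx

end CfsgLib.MinNonCA98
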